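import Mathlib
import Cfsg.Agent.Lib.Helper35.BG.Basic
import Cfsg.Agent.Lib.Helper35.BG.Hall

/-!
General tools for the Bender–Glauberman chain (helper13): a `p`-group acting on the Sylow
subgroups of a subgroup it normalizes has a fixed point, and small conjugation utilities.
-/

set_option autoImplicit false

namespace Cfsg.Agent.Lib.Helper13.BG

open Cfsg Cfsg.Agent.Lib.Helper46 Cfsg.Agent.Lib.Helper35.BG

variable {G : Type*} [Group G]

/-- Sylow `q`-subgroups of `N`, as subgroups of `G`. -/
def SylSub (q : ℕ) (N : Subgroup G) : Type _ := {B : Subgroup G // IsSylowIn q B N}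

/-- The subgroups of `G` that are Sylow `q`-subgroups of `N` correspond to `Sylow q N`. -/
noncomputable def sylSubEquiv (q : ℕ) [Fact q.Prime] (N : Subgroup G) [Finite N] :
    SylSub q N ≃ Sylow q ↥N where
  toFun B := Classical.choose B.2.exists_sylow
  invFun S := ⟨(S : Subgroup N).map N.subtype, isSylowIn_of_sylow S⟩
  left_inv B := Subtype.ext (Classical.choose_spec B.2.exists_sylow)
  right_inv S := by
    have h := Classical.choose_spec (isSylowIn_of_sylow S).exists_sylow
    exact Sylow.ext (Subgroup.map_injective N.subtype_injective h)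

/-- An `r`-group normalizing `N` normalizes some Sylow `q`-subgroup of `N`, provided the number
of Sylow `q`-subgroups of `N` is prime to `r`. -/
theorem exists_normalized_sylow [Finite G] {r q : ℕ} [Fact r.Prime] [Fact q.Prime]
    {P N : Subgroup G} (hP : IsPGroup r P) (hPN : P ≤ Subgroup.normalizer (N : Set G))
    (hnd : ¬ r ∣ Nat.card (Sylow q ↥N)) :
    ∃ B : Subgroup G, IsSylowIn q B N ∧ P ≤ Subgroup.normalizer (B : Set G) := by
  classical
  let act : MulAction P (SylSub q N) :=
    { smul := fun g B => ⟨B.1.map (MulAut.conj (g : G)).toMonoidHom, by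
        have h := B.2.map (MulAut.conj (g : G))
        rwa [map_conj_eq_of_mem_normalizer (hPN g.2)] at h⟩
      one_smul := fun B => Subtype.ext (by
        show B.1.map (MulAut.conj ((1 : P) : G)).toMonoidHom = B.1
        rw [Subgroup.coe_one]; exact map_conj_one B.1)
      mul_smul := fun g h B => Subtype.ext (by
        show B.1.map (MulAut.conj ((g * h : P) : G)).toMonoidHom =
          (B.1.map (MulAut.conj (h : G)).toMonoidHom).map (MulAut.conj (g : G)).toMonoidHom
        rw [map_conj_mul, Subgroup.coe_mul]) }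
  have hcard : ¬ r ∣ Nat.card (SylSub q N) := by
    rw [Nat.card_congr (sylSubEquiv q N)]; exact hnd
  obtain ⟨B, hB⟩ := hP.nonempty_fixed_point_of_prime_not_dvd_card (SylSub q N) hcard
  refine ⟨B.1, B.2, ?_⟩
  intro g hg
  apply mem_normalizer_of_map_conj_eq
  have := hB ⟨g, hg⟩
  exact congrArg Subtype.val this

/-- Variant: the normalized Sylow subgroup is a conjugate of a given one. -/
theorem exists_conj_normalized [Finite G] {r q : ℕ} [Fact r.Prime] [Fact q.Prime]
    {P N B : Subgroup G} (hP : IsPGroup r P) (hPN : P ≤ Subgroup.normalizer (N : Set G))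
    (hB : IsSylowIn q B N) (hnd : ¬ r ∣ Nat.card (Sylow q ↥N)) :
    ∃ n ∈ N, P ≤ Subgroup.normalizer ((B.map (MulAut.conj n).toMonoidHom : Subgroup G) : Set G) := by
  obtain ⟨B', hB', hPB'⟩ := exists_normalized_sylow hP hPN hnd
  obtain ⟨n, hn, rfl⟩ := hB.exists_conj hB'
  exact ⟨n, hn, hPB'⟩

/-- The number of Sylow `q`-subgroups of `N` divides the order of `N`. -/
theorem card_sylow_dvd_card [Finite G] {q : ℕ} [Fact q.Prime] (N : Subgroup G) :
    Nat.card (Sylow q ↥N) ∣ Nat.card N := by
  have P : Sylow q ↥N := default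
  exact (P.card_dvd_index).trans (Subgroup.index_dvd_card _)

/-- A subgroup of `L` that is a `q`-group of index prime to `q` is a Sylow `q`-subgroup of `L`. -/
theorem isSylowIn_of_not_dvd_relIndex [Finite G] {q : ℕ} [Fact q.Prime] {T L : Subgroup G}
    (hT : IsPGroup q T) (hTL : T ≤ L) (hnd : ¬ q ∣ T.relIndex L) : IsSylowIn q T L := by
  obtain ⟨R, hR, hTR⟩ := exists_isSylowIn_ge hT hTL
  have e1 := card_mul_relIndex' hTL
  have e2 := card_mul_relIndex' hR.1
  have hqp : q.Prime := Fact.out
  obtain ⟨k, hk⟩ := IsPGroup.iff_card.mp hT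
  refine ⟨hTL, ?_⟩
  rw [hk]
  congr 1
  have hL0 : Nat.card L ≠ 0 := Nat.card_pos.ne'
  have hrel0 : T.relIndex L ≠ 0 := by
    intro h0; rw [h0, mul_zero] at e1; exact hL0 e1.symm
  rw [← e1, Nat.factorization_mul (by rw [hk]; exact pow_ne_zero _ hqp.ne_zero) hrel0, hk,
    Nat.Prime.factorization_pow hqp]
  simp [Nat.factorization_eq_zero_of_not_dvd hnd]

/-- A `p`-subgroup of `L` is conjugate in `L` into any subgroup of `L` of index prime to `p`. -/
theorem exists_conj_le_of_not_dvd_relIndex [Finite G] {p : ℕ} [Fact p.Prime] {A J L : Subgroup G}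
    (hA : IsPGroup p A) (hAL : A ≤ L) (hJL : J ≤ L) (hnd : ¬ p ∣ J.relIndex L) :
    ∃ l ∈ L, A.map (MulAut.conj l).toMonoidHom ≤ J := by
  obtain ⟨R, hR, -⟩ := exists_isSylowIn_ge (p := p) (Q := (⊥ : Subgroup G)) (H := J)
    (IsPGroup.of_bot) bot_le
  have hqp : p.Prime := Fact.out
  have hRL : IsSylowIn p R L := by
    refine ⟨hR.1.trans hJL, ?_⟩
    rw [hR.2]
    congr 1
    have e1 := card_mul_relIndex' hJL
    have hL0 : Nat.card L ≠ 0 := Nat.card_pos.ne'
    have hJ0 : Nat.card J ≠ 0 := Nat.card_pos.ne'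
    have hrel0 : J.relIndex L ≠ 0 := by
      intro h0; rw [h0, mul_zero] at e1; exact hL0 e1.symm
    rw [← e1, Nat.factorization_mul hJ0 hrel0]
    simp [Nat.factorization_eq_zero_of_not_dvd hnd]
  obtain ⟨R', hR', hAR'⟩ := exists_isSylowIn_ge hA hAL
  obtain ⟨l, hl, rfl⟩ := hR'.exists_conj hRL
  exact ⟨l, hl, (Subgroup.map_mono hAR').trans hR.1⟩

end Cfsg.Agent.Lib.Helper13.BG
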